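import Mathlib
import Cfsg.Agent.Lib.Helper23.OHyp.Defs

/-!
# OHYP (S5992): package [INVOL]

An involutory isometry `x` of a nondegenerate quadratic space of dimension `n ≥ 3` over a finite
field of odd characteristic fixes a nondegenerate `m`-space of plus type for every even `m < n`.

Route (no discriminants): an `x`-invariant nondegenerate subspace of dimension `≥ 3` contains an
`x`-invariant hyperbolic plane (three pairwise orthogonal anisotropic eigenvectors, two of them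
with the same eigenvalue, and universality of binary forms over a finite field); then induction,
using the packages [PERP] and [SUM].
-/

set_option autoImplicit false
open scoped MatrixGroups
open Matrix

namespace Cfsg.Agent.Lib.Helper10.OHyp

open Cfsg.Agent.Lib.Helper23.OHyp

universe u

section

variable {F : Type u} [Field F] {ι : Type} [Fintype ι] [DecidableEq ι]

set_option linter.unusedSectionVars false

theorem inv_iff (X : Matrix ι ι F) (W : Submodule F (ι → F)) :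
    Inv X W ↔ ∀ w ∈ W, X *ᵥ w ∈ W := by
  unfold Cfsg.Agent.Lib.Helper23.OHyp.Inv
  rw [Submodule.map_le_iff_le_comap]
  constructor
  · intro h w hw
    have h1 := h hw
    rwa [Submodule.mem_comap, Matrix.toLin'_apply] at h1
  · intro h w hw
    rw [Submodule.mem_comap, Matrix.toLin'_apply]
    exact h w hw

variable {Q : (ι → F) → F}

theorem q_zero (hQ : Cfsg.Geo.IsNondegenerateQuadraticForm Q) : Q 0 = 0 := by
  have h := hQ.smul 0 0
  simpa using h

theorem polar_self (hQ : Cfsg.Geo.IsNondegenerateQuadraticForm Q) (v : ι → F) :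
    QuadraticMap.polar Q v v = 2 * Q v := by
  have h := hQ.smul 2 v
  unfold QuadraticMap.polar
  rw [← two_smul F v, h]
  ring

theorem q_add (Q : (ι → F) → F) (u v : ι → F) :
    Q (u + v) = Q u + Q v + QuadraticMap.polar Q u v := by
  unfold QuadraticMap.polar
  ring

theorem ne_zero_of_q (hQ : Cfsg.Geo.IsNondegenerateQuadraticForm Q) (e : ι → F) (he : Q e ≠ 0) :
    e ≠ 0 := by
  rintro rfl
  exact he (q_zero hQ)

/-- the line spanned by an anisotropic vector is nondegenerate -/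
theorem nd_span (hQ : Cfsg.Geo.IsNondegenerateQuadraticForm Q) (h2 : (2 : F) ≠ 0) (e : ι → F)
    (he : Q e ≠ 0) : Nd Q (Submodule.span F {e}) := by
  intro w hw hw0
  obtain ⟨c, rfl⟩ := Submodule.mem_span_singleton.1 hw
  have hc : c ≠ 0 := by
    rintro rfl
    exact hw0 (zero_smul _ _)
  have hB := hQ.polar_bilinear
  have h1 : QuadraticMap.polar Q e (c • e) ≠ 0 := by
    rw [hB.smul_right, polar_self hQ]
    exact mul_ne_zero hc (mul_ne_zero h2 he)
  have h2' : QuadraticMap.polar Q (c • e) e ≠ 0 := by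
    rw [hB.smul_left, polar_self hQ]
    exact mul_ne_zero hc (mul_ne_zero h2 he)
  exact ⟨⟨e, Submodule.mem_span_singleton_self e, h1⟩,
    ⟨e, Submodule.mem_span_singleton_self e, h2'⟩⟩

theorem inv_span (X : Matrix ι ι F) (e : ι → F) (ε : F) (h : X *ᵥ e = ε • e) :
    Inv X (Submodule.span F {e}) := by
  rw [inv_iff]
  intro w hw
  obtain ⟨c, rfl⟩ := Submodule.mem_span_singleton.1 hw
  rw [Matrix.mulVec_smul, h, smul_smul]
  exact Submodule.smul_mem _ _ (Submodule.mem_span_singleton_self e)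

theorem perp_span (hQ : Cfsg.Geo.IsNondegenerateQuadraticForm Q) (a b : ι → F)
    (hab : QuadraticMap.polar Q a b = 0) :
    Perp Q (Submodule.span F {a}) (Submodule.span F {b}) := by
  intro y hy z hz
  obtain ⟨α, rfl⟩ := Submodule.mem_span_singleton.1 hy
  obtain ⟨β, rfl⟩ := Submodule.mem_span_singleton.1 hz
  rw [hQ.polar_bilinear.smul_left, hQ.polar_bilinear.smul_right, hab, mul_zero, mul_zero]

/-- an anisotropic eigenvector in a nonzero invariant nondegenerate subspace -/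
theorem exists_aniso_eigen (hQ : Cfsg.Geo.IsNondegenerateQuadraticForm Q) (h2 : (2 : F) ≠ 0)
    (X : Matrix ι ι F) (hisom : ∀ v, Q (X *ᵥ v) = Q v) (hXX : ∀ v, X *ᵥ (X *ᵥ v) = v)
    (W : Submodule F (ι → F)) (hinv : ∀ w ∈ W, X *ᵥ w ∈ W) (hnd : Nd Q W) (hW : W ≠ ⊥) :
    ∃ e ∈ W, Q e ≠ 0 ∧ ∃ ε : F, (ε = 1 ∨ ε = -1) ∧ X *ᵥ e = ε • e := by
  have hB := hQ.polar_bilinear
  obtain ⟨w, hw, hw0⟩ := (Submodule.ne_bot_iff W).1 hW
  obtain ⟨⟨y, hy, hyw⟩, -⟩ := hnd w hw hw0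
  obtain ⟨v, hv, hQv⟩ : ∃ v ∈ W, Q v ≠ 0 := by
    by_contra hcon0
    have hcon : ∀ v ∈ W, Q v = 0 := fun v hv => by_contra fun h => hcon0 ⟨v, hv, h⟩
    apply hyw
    unfold QuadraticMap.polar
    rw [hcon _ (W.add_mem hy hw), hcon _ hy, hcon _ hw]
    ring
  have hp : X *ᵥ (v + X *ᵥ v) = (1 : F) • (v + X *ᵥ v) := by
    rw [Matrix.mulVec_add, hXX, one_smul, add_comm]
  have hm : X *ᵥ (v - X *ᵥ v) = (-1 : F) • (v - X *ᵥ v) := by
    rw [Matrix.mulVec_sub, hXX, neg_one_smul, neg_sub]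
  have hBx : ∀ a b, QuadraticMap.polar Q (X *ᵥ a) (X *ᵥ b) = QuadraticMap.polar Q a b := by
    intro a b
    unfold QuadraticMap.polar
    rw [← Matrix.mulVec_add, hisom, hisom, hisom]
  have horth : QuadraticMap.polar Q (v + X *ᵥ v) (v - X *ᵥ v) = 0 := by
    have h1 := hBx (v + X *ᵥ v) (v - X *ᵥ v)
    rw [hp, hm, hB.smul_left, hB.smul_right] at h1
    have h3 : (2 : F) * QuadraticMap.polar Q (v + X *ᵥ v) (v - X *ᵥ v) = 0 := by
      linear_combination (-1 : F) * h1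
    exact (mul_eq_zero.1 h3).resolve_left h2
  have hsum : Q ((2 : F) • v) = Q (v + X *ᵥ v) + Q (v - X *ᵥ v) := by
    have h4 : (2 : F) • v = (v + X *ᵥ v) + (v - X *ᵥ v) := by
      rw [two_smul]; abel
    rw [h4, q_add Q, horth, add_zero]
  rw [hQ.smul] at hsum
  by_cases h : Q (v + X *ᵥ v) = 0
  · refine ⟨v - X *ᵥ v, W.sub_mem hv (hinv v hv), ?_, -1, Or.inr rfl, hm⟩
    intro h'
    rw [h, h', add_zero] at hsum
    exact hQv ((mul_eq_zero.1 hsum).resolve_left (pow_ne_zero 2 h2))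
  · exact ⟨v + X *ᵥ v, W.add_mem hv (hinv v hv), h, 1, Or.inl rfl, hp⟩

end

section finite

variable {F : Type u} [Field F] [Fintype F] {ι : Type} [Fintype ι] [DecidableEq ι]
variable {Q : (ι → F) → F}

/-- the hyperbolic plane spanned by `u = s a + t b` and `c` -/
theorem plane_core (hSum : PkgSum.{u}) (hQ : Cfsg.Geo.IsNondegenerateQuadraticForm Q)
    (h2 : (2 : F) ≠ 0) (X : Matrix ι ι F) (W : Submodule F (ι → F)) (a b c : ι → F) (ε δ : F)
    (ha : a ∈ W) (hb : b ∈ W) (hc : c ∈ W) (hQa : Q a ≠ 0) (hQb : Q b ≠ 0) (hQc : Q c ≠ 0)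
    (hab : QuadraticMap.polar Q a b = 0) (hac : QuadraticMap.polar Q a c = 0)
    (hbc : QuadraticMap.polar Q b c = 0)
    (hXa : X *ᵥ a = ε • a) (hXb : X *ᵥ b = ε • b) (hXc : X *ᵥ c = δ • c) :
    ∃ P : Submodule F (ι → F), P ≤ W ∧ Inv X P ∧ Nd Q P ∧ Plus Q P ∧ Module.finrank F P = 2 := by
  classical
  have hB := hQ.polar_bilinear
  have hchar : ringChar F ≠ 2 := by
    intro h
    have : CharP F 2 := h ▸ ringChar.charP F
    exact h2 (CharTwo.two_eq_zero)
  have hodd : Fintype.card F % 2 = 1 := FiniteField.odd_card_of_char_ne_two hchar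
  have hf2 : (Polynomial.C (Q a) * Polynomial.X ^ 2 : Polynomial F).degree = 2 := by
    rw [Polynomial.degree_C_mul_X_pow 2 hQa]; rfl
  have hg2 : (Polynomial.C (Q b) * Polynomial.X ^ 2 + Polynomial.C (Q c) : Polynomial F).degree
      = 2 := by
    rw [Polynomial.degree_add_C (by rw [Polynomial.degree_C_mul_X_pow 2 hQb]; exact by decide),
      Polynomial.degree_C_mul_X_pow 2 hQb]; rfl
  obtain ⟨s, t, hst⟩ := FiniteField.exists_root_sum_quadratic hf2 hg2 hodd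
  simp only [Polynomial.eval_mul, Polynomial.eval_C, Polynomial.eval_pow, Polynomial.eval_X,
    Polynomial.eval_add] at hst
  obtain ⟨u, hu⟩ : ∃ u : ι → F, u = s • a + t • b := ⟨_, rfl⟩
  have hQu : Q u = - Q c := by
    rw [hu, q_add Q, hQ.smul, hQ.smul, hB.smul_left, hB.smul_right, hab]
    linear_combination hst
  have huc : QuadraticMap.polar Q u c = 0 := by
    rw [hu, hB.add_left, hB.smul_left, hB.smul_left, hac, hbc]
    ring
  have hXu : X *ᵥ u = ε • u := by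
    rw [hu, Matrix.mulVec_add, Matrix.mulVec_smul, Matrix.mulVec_smul, hXa, hXb, smul_add,
      smul_comm s ε a, smul_comm t ε b]
  have hQu0 : Q u ≠ 0 := by
    rw [hQu]; exact neg_ne_zero.2 hQc
  have huW : u ∈ W := by
    rw [hu]; exact W.add_mem (W.smul_mem _ ha) (W.smul_mem _ hb)
  obtain ⟨hnd, hfin, -⟩ := hSum F ι Q hQ h2 (Submodule.span F {u}) (Submodule.span F {c})
    (nd_span hQ h2 u hQu0) (nd_span hQ h2 c hQc) (perp_span hQ u c huc)
  rw [finrank_span_singleton (ne_zero_of_q hQ u hQu0),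
    finrank_span_singleton (ne_zero_of_q hQ c hQc)] at hfin
  refine ⟨Submodule.span F {u} ⊔ Submodule.span F {c}, ?_, ?_, hnd, ?_, hfin⟩
  · exact sup_le ((Submodule.span_singleton_le_iff_mem _ _).2 huW)
      ((Submodule.span_singleton_le_iff_mem _ _).2 hc)
  · unfold Cfsg.Agent.Lib.Helper23.OHyp.Inv
    rw [Submodule.map_sup]
    exact sup_le_sup (inv_span X u ε hXu) (inv_span X c δ hXc)
  · have hne : u + c ≠ 0 := by
      intro h0
      have h1 : u = (-1 : F) • c := by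
        rw [neg_one_smul]; exact eq_neg_of_add_eq_zero_left h0
      rw [h1, hB.smul_left, polar_self hQ] at huc
      have h3 : (2 : F) * Q c = 0 := by linear_combination (-1 : F) * huc
      exact hQc ((mul_eq_zero.1 h3).resolve_left h2)
    refine ⟨Submodule.span F {u + c}, ?_, ?_, ?_⟩
    · rw [Submodule.span_singleton_le_iff_mem]
      exact Submodule.add_mem_sup (Submodule.mem_span_singleton_self u)
        (Submodule.mem_span_singleton_self c)
    · intro w hw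
      obtain ⟨γ, rfl⟩ := Submodule.mem_span_singleton.1 hw
      rw [hQ.smul, q_add Q, huc, hQu]
      ring
    · rw [hfin, finrank_span_singleton hne]

/-- an invariant nondegenerate subspace of dimension `≥ 3` contains an invariant hyperbolic
plane -/
theorem exists_plane (hPerp : PkgPerp.{u}) (hSum : PkgSum.{u})
    (hQ : Cfsg.Geo.IsNondegenerateQuadraticForm Q) (h2 : (2 : F) ≠ 0)
    (X : Matrix ι ι F) (hisom : ∀ v, Q (X *ᵥ v) = Q v) (hdet : IsUnit X.det)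
    (hXX : ∀ v, X *ᵥ (X *ᵥ v) = v) (W : Submodule F (ι → F)) (hinv : Inv X W) (hnd : Nd Q W)
    (h3 : 3 ≤ Module.finrank F W) :
    ∃ P : Submodule F (ι → F), P ≤ W ∧ Inv X P ∧ Nd Q P ∧ Plus Q P ∧ Module.finrank F P = 2 := by
  have hne : ∀ W' : Submodule F (ι → F), 1 ≤ Module.finrank F W' → W' ≠ ⊥ := by
    intro W' h hb
    rw [hb, finrank_bot] at h
    omega
  have hsymm : ∀ a b, QuadraticMap.polar Q a b = QuadraticMap.polar Q b a :=
    fun a b => QuadraticMap.polar_comm Q a b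
  obtain ⟨e₁, he₁, hQ₁, ε₁, hε₁, hX₁⟩ := exists_aniso_eigen hQ h2 X hisom hXX W
    ((inv_iff X W).1 hinv) hnd (hne W (by omega))
  obtain ⟨W₁, hW₁, hinv₁, hnd₁, hperp₁, -, hfin₁⟩ := hPerp F ι Q hQ X hisom hdet W
    (Submodule.span F {e₁}) ((Submodule.span_singleton_le_iff_mem _ _).2 he₁) hinv
    (inv_span X e₁ ε₁ hX₁) hnd (nd_span hQ h2 e₁ hQ₁)
  rw [finrank_span_singleton (ne_zero_of_q hQ e₁ hQ₁)] at hfin₁
  obtain ⟨e₂, he₂, hQ₂, ε₂, hε₂, hX₂⟩ := exists_aniso_eigen hQ h2 X hisom hXX W₁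
    ((inv_iff X W₁).1 hinv₁) hnd₁ (hne W₁ (by omega))
  obtain ⟨W₂, hW₂, hinv₂, hnd₂, hperp₂, -, hfin₂⟩ := hPerp F ι Q hQ X hisom hdet W₁
    (Submodule.span F {e₂}) ((Submodule.span_singleton_le_iff_mem _ _).2 he₂) hinv₁
    (inv_span X e₂ ε₂ hX₂) hnd₁ (nd_span hQ h2 e₂ hQ₂)
  rw [finrank_span_singleton (ne_zero_of_q hQ e₂ hQ₂)] at hfin₂
  obtain ⟨e₃, he₃, hQ₃, ε₃, hε₃, hX₃⟩ := exists_aniso_eigen hQ h2 X hisom hXX W₂
    ((inv_iff X W₂).1 hinv₂) hnd₂ (hne W₂ (by omega))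
  have h12 : QuadraticMap.polar Q e₁ e₂ = 0 :=
    hperp₁ e₁ (Submodule.mem_span_singleton_self e₁) e₂ he₂
  have h13 : QuadraticMap.polar Q e₁ e₃ = 0 :=
    hperp₁ e₁ (Submodule.mem_span_singleton_self e₁) e₃ (hW₂ he₃)
  have h23 : QuadraticMap.polar Q e₂ e₃ = 0 :=
    hperp₂ e₂ (Submodule.mem_span_singleton_self e₂) e₃ he₃
  have m₁ : e₁ ∈ W := he₁
  have m₂ : e₂ ∈ W := hW₁ he₂
  have m₃ : e₃ ∈ W := hW₁ (hW₂ he₃)
  by_cases c12 : ε₁ = ε₂
  · exact plane_core hSum hQ h2 X W e₁ e₂ e₃ ε₁ ε₃ m₁ m₂ m₃ hQ₁ hQ₂ hQ₃ h12 h13 h23 hX₁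
      (c12 ▸ hX₂) hX₃
  · by_cases c13 : ε₁ = ε₃
    · exact plane_core hSum hQ h2 X W e₁ e₃ e₂ ε₁ ε₂ m₁ m₃ m₂ hQ₁ hQ₃ hQ₂ h13 h12
        ((hsymm _ _).trans h23) hX₁ (c13 ▸ hX₃) hX₂
    · have c23 : ε₂ = ε₃ := by
        rcases hε₁ with r1 | r1 <;> rcases hε₂ with r2 | r2 <;> rcases hε₃ with r3 | r3 <;>
          simp_all
      exact plane_core hSum hQ h2 X W e₂ e₃ e₁ ε₂ ε₁ m₂ m₃ m₁ hQ₂ hQ₃ hQ₁ h23
        ((hsymm _ _).trans h12) ((hsymm _ _).trans h13) hX₂ (c23 ▸ hX₃) hX₁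

/-- invariant nondegenerate plus-type subspaces of every even dimension `< dim W` -/
theorem exists_plus (hPerp : PkgPerp.{u}) (hSum : PkgSum.{u})
    (hQ : Cfsg.Geo.IsNondegenerateQuadraticForm Q) (h2 : (2 : F) ≠ 0)
    (X : Matrix ι ι F) (hisom : ∀ v, Q (X *ᵥ v) = Q v) (hdet : IsUnit X.det)
    (hXX : ∀ v, X *ᵥ (X *ᵥ v) = v) :
    ∀ (j : ℕ) (W : Submodule F (ι → F)), Inv X W → Nd Q W → 2 * j + 1 ≤ Module.finrank F W →
      ∃ W' : Submodule F (ι → F), W' ≤ W ∧ Inv X W' ∧ Nd Q W' ∧ Plus Q W' ∧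
        Module.finrank F W' = 2 * j := by
  intro j
  induction j with
  | zero =>
    intro W _ _ _
    refine ⟨⊥, bot_le, ?_, ?_, ?_, ?_⟩
    · unfold Cfsg.Agent.Lib.Helper23.OHyp.Inv
      rw [Submodule.map_bot]
    · intro w hw hw0
      exact absurd ((Submodule.mem_bot F).1 hw) hw0
    · refine ⟨⊥, le_rfl, ?_, by simp⟩
      intro w hw
      rw [(Submodule.mem_bot F).1 hw]
      exact q_zero hQ
    · simp
  | succ j ih =>
    intro W hinv hnd hfin
    obtain ⟨P, hPW, hPinv, hPnd, hPplus, hPfin⟩ :=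
      exists_plane hPerp hSum hQ h2 X hisom hdet hXX W hinv hnd (by omega)
    obtain ⟨W₁, hW₁, hinv₁, hnd₁, hperp₁, -, hfin₁⟩ :=
      hPerp F ι Q hQ X hisom hdet W P hPW hinv hPinv hnd hPnd
    obtain ⟨W₂, hW₂, hinv₂, hnd₂, hplus₂, hfin₂⟩ := ih W₁ hinv₁ hnd₁ (by omega)
    have hperp : Perp Q P W₂ := fun a ha b hb => hperp₁ a ha b (hW₂ hb)
    obtain ⟨hnd', hfin', hplus'⟩ := hSum F ι Q hQ h2 P W₂ hPnd hnd₂ hperp
    refine ⟨P ⊔ W₂, sup_le hPW (hW₂.trans hW₁), ?_, hnd', ?_, ?_⟩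
    · unfold Cfsg.Agent.Lib.Helper23.OHyp.Inv
      rw [Submodule.map_sup]
      exact sup_le_sup hPinv hinv₂
    · exact (hplus' (by rw [hPfin]; exact even_two) (by rw [hfin₂]; exact even_two_mul j)).2
        ⟨fun _ => hplus₂, fun _ => hPplus⟩
    · rw [hfin', hPfin, hfin₂]
      ring

end finite

/-- **[INVOL]**, from [PERP] and [SUM]. -/
theorem pkgInvol_of (hPerp : PkgPerp.{u}) (hSum : PkgSum.{u}) : PkgInvol.{u} := by
  intro F _ _ ι _ _ Q hQ h2 x hx hx2 m hm hmn h3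
  obtain ⟨j, hj⟩ := hm
  have hisom : ∀ v, Q ((x : Matrix ι ι F) *ᵥ v) = Q v := fun v => hx v v
  have hdet : IsUnit (x : Matrix ι ι F).det := (Matrix.isUnit_iff_isUnit_det _).1 x.isUnit
  have hXX : ∀ v, (x : Matrix ι ι F) *ᵥ ((x : Matrix ι ι F) *ᵥ v) = v := by
    intro v
    have h1 : (x : Matrix ι ι F) * (x : Matrix ι ι F) = 1 := by
      rw [← Units.val_mul, ← pow_two, hx2, Units.val_one]
    rw [Matrix.mulVec_mulVec, h1, Matrix.one_mulVec]
  have hndtop : Nd Q (⊤ : Submodule F (ι → F)) := by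
    intro w _ hw0
    obtain ⟨⟨y, hy⟩, ⟨z, hz⟩⟩ := hQ.nondegenerate w hw0
    exact ⟨⟨y, Submodule.mem_top, hy⟩, ⟨z, Submodule.mem_top, hz⟩⟩
  obtain ⟨W', -, hinv', hnd', hplus', hfin'⟩ := exists_plus hPerp hSum hQ h2
    (x : Matrix ι ι F) hisom hdet hXX j ⊤ (by unfold Cfsg.Agent.Lib.Helper23.OHyp.Inv; exact le_top) hndtop
    (by rw [finrank_top, Module.finrank_fintype_fun_eq_card]; omega)
  exact ⟨W', ⟨by rw [hfin', hj]; ring, hnd', hplus'⟩, hinv'⟩

end Cfsg.Agent.Lib.Helper10.OHyp
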